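import Cfsg.Agent.CpAutCoFive.Row
import Cfsg.Agent.PreUniqCo.Facts

/-!
# S1814, the rows `Co2` and `Co3`, `p = 5`, without the hypothesis `Facts`
-/

set_option autoImplicit false

namespace Cfsg.Agent.CpAutCoFive.Final

open Cfsg

/-- **The field `co2` of `CpAut.FiveRows`.** -/
theorem co2 (T : OrdDiv.OrderTable.{0}) (hS : CpAut.AllKnown.{0}) : CpAut.AutC 5 Spor.Co2 :=
  autC_co2 PreUniqCo.Facts.facts T hS

/-- **The field `co3` of `CpAut.FiveRows`.** -/
theorem co3 (T : OrdDiv.OrderTable.{0}) (hS : CpAut.AllKnown.{0}) : CpAut.AutC 5 Spor.Co3 :=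
  autC_co3 PreUniqCo.Facts.facts T hS

end Cfsg.Agent.CpAutCoFive.Final
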